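import Mathlib
import Cfsg.Agent.Base
import Cfsg.Agent.Lib.Orth12.Bridge
import Cfsg.Agent.Lib.ThreeTrans.Primitive

/-!
Reflections of orthogonal spaces over the field with three elements are 3-transpositions (lead).
-/

set_option autoImplicit false

namespace L0.R3

open QuadraticMap Module H12 Cfsg

section general
variable {F V : Type*} [Field F] [AddCommGroup V] [Module F V] {Q : QuadraticForm F V}

theorem exists_orth_Q_ne [FiniteDimensional F V] (hQ : Nondeg Q) (W : Submodule F V) {z : V}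
    (hz : ∀ w ∈ W, polar Q w z = 0) (hzW : z ∉ W) :
    ∃ a, (∀ w ∈ W, polar Q w a = 0) ∧ Q a ≠ 0 := by
  obtain ⟨y, hy, hyz⟩ := hQ.exists_orth_B_ne W hzW
  rcases exists_Q_ne_of_B_ne hyz with h | h | h
  · exact ⟨y, hy, h⟩
  · exact ⟨z, hz, h⟩
  · exact ⟨y + z, fun w hw => by rw [polar_add_right, hy w hw, hz w hw, add_zero], h⟩

theorem finrank_orth [FiniteDimensional F V] (W : Submodule F V) :
    finrank F V ≤ finrank F W + finrank F (LinearMap.BilinForm.orthogonal (polarBilin Q) W) := by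
  have := LinearMap.BilinForm.finrank_add_finrank_orthogonal' (B := polarBilin Q) W
  omega

theorem exists_orth_not_mem [FiniteDimensional F V] (W U : Submodule F V)
    (h : finrank F W + finrank F U < finrank F V) :
    ∃ z, (∀ w ∈ W, polar Q w z = 0) ∧ z ∉ U := by
  by_contra hc
  push Not at hc
  have h1 : LinearMap.BilinForm.orthogonal (polarBilin Q) W ≤ U := fun z hz => hc z hz
  have h2 := Submodule.finrank_mono h1
  have := finrank_orth (Q := Q) W
  omega

theorem finrank_span_le (s : Finset V) : finrank F (Submodule.span F (s : Set V)) ≤ s.card :=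
  finrank_span_finset_le_card (R := F) s

theorem fr1 (x : V) : finrank F (Submodule.span F ({x} : Set V)) ≤ 1 := by
  have := finrank_span_le (F := F) ({x} : Finset V)
  rwa [Finset.coe_singleton, Finset.card_singleton] at this

theorem fr2 (x y : V) : finrank F (Submodule.span F ({x, y} : Set V)) ≤ 2 := by
  classical
  have := finrank_span_le (F := F) ({x, y} : Finset V)
  rw [Finset.coe_insert, Finset.coe_singleton] at this
  exact this.trans Finset.card_le_two

theorem fr3 (x y z : V) : finrank F (Submodule.span F ({x, y, z} : Set V)) ≤ 3 := by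
  classical
  have := finrank_span_le (F := F) ({x, y, z} : Finset V)
  rw [Finset.coe_insert, Finset.coe_insert, Finset.coe_singleton] at this
  exact this.trans Finset.card_le_three

theorem orth_span {s : Set V} {z : V} :
    (∀ w ∈ Submodule.span F s, polar Q w z = 0) ↔ ∀ w ∈ s, polar Q w z = 0 := by
  refine ⟨fun h w hw => h w (Submodule.subset_span hw), fun h w hw => ?_⟩
  induction hw using Submodule.span_induction with
  | mem x hx => exact h x hx
  | zero => simp
  | add x y _ _ hx hy => rw [polar_add_left, hx, hy, add_zero]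
  | smul a x _ hx => rw [B_smul_left, hx, mul_zero]

/-- vectors orthogonal to a non-singular `u` and to an `s ⟂ u` take all non-zero values -/
theorem exists_orth_Q_eq [Finite F] [FiniteDimensional F V] (hQ : Nondeg Q) (h2 : (2 : F) ≠ 0)
    (hn : 5 ≤ finrank F V) {u s : V} (hu : Q u ≠ 0) (hus : polar Q u s = 0) (c : F) :
    ∃ w, polar Q u w = 0 ∧ polar Q s w = 0 ∧ Q w = c := by
  have huu : polar Q u u ≠ 0 := by rw [B_self]; exact mul_ne_zero h2 hu
  obtain ⟨z, hz, hzs⟩ := exists_orth_not_mem (Q := Q) (Submodule.span F {u, s})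
    (Submodule.span F {s}) (by have := fr2 (F := F) u s; have := fr1 (F := F) s; omega)
  obtain ⟨a, ha, hQa⟩ := exists_orth_Q_ne hQ _ hz (by
    intro hm
    obtain ⟨x, y, rfl⟩ := Submodule.mem_span_pair.1 hm
    have := orth_span.1 hz u (by simp)
    rw [polar_add_right, B_smul_right, B_smul_right, hus, mul_zero, add_zero] at this
    rw [(mul_eq_zero.1 this).resolve_right huu, zero_smul, zero_add] at hzs
    exact hzs (Submodule.smul_mem _ _ (Submodule.mem_span_singleton_self s)))
  have hua := orth_span.1 ha u (by simp)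
  have hsa := orth_span.1 ha s (by simp)
  have haa : polar Q a a ≠ 0 := by rw [B_self]; exact mul_ne_zero h2 hQa
  obtain ⟨z, hz, hzs⟩ := exists_orth_not_mem (Q := Q) (Submodule.span F {u, s, a})
    (Submodule.span F {s}) (by have := fr3 (F := F) u s a; have := fr1 (F := F) s; omega)
  obtain ⟨b, hb, hQb⟩ := exists_orth_Q_ne hQ _ hz (by
    intro hm
    obtain ⟨x, y, t, rfl⟩ := Submodule.mem_span_triple.1 hm
    have h1 := orth_span.1 hz u (by simp)
    have h3 := orth_span.1 hz a (by simp)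
    rw [polar_add_right, polar_add_right, B_smul_right, B_smul_right, B_smul_right, hus, hua,
      mul_zero, mul_zero, add_zero, add_zero] at h1
    rw [polar_add_right, polar_add_right, B_smul_right, B_smul_right, B_smul_right,
      polar_comm Q a u, polar_comm Q a s, hua, hsa, mul_zero, mul_zero, zero_add, zero_add] at h3
    rw [(mul_eq_zero.1 h1).resolve_right huu, (mul_eq_zero.1 h3).resolve_right haa, zero_smul,
      zero_smul, zero_add, add_zero] at hzs
    exact hzs (Submodule.smul_mem _ _ (Submodule.mem_span_singleton_self s)))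
  have hub := orth_span.1 hb u (by simp)
  have hsb := orth_span.1 hb s (by simp)
  have hab := orth_span.1 hb a (by simp)
  obtain ⟨x, y, hxy⟩ := exists_binary_eq h2 hQa hQb c
  refine ⟨x • a + y • b, ?_, ?_, ?_⟩
  · rw [polar_add_right, B_smul_right, B_smul_right, hua, hub]; ring
  · rw [polar_add_right, B_smul_right, B_smul_right, hsa, hsb]; ring
  · rw [Q_add, Q_smul, Q_smul, B_smul_left, B_smul_right, hab, ← hxy]; ring

theorem exists_sing_orth [Finite F] [FiniteDimensional F V] (hn : 5 ≤ finrank F V) (u v : V) :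
    ∃ s, s ≠ 0 ∧ Q s = 0 ∧ polar Q u s = 0 ∧ polar Q v s = 0 := by
  let P := LinearMap.BilinForm.orthogonal (polarBilin Q) (Submodule.span F {u, v})
  have h1 : _ ≤ _ + finrank F P := finrank_orth (Q := Q) (Submodule.span F {u, v})
  have h2 := fr2 (F := F) u v
  obtain ⟨s, hs0, hs⟩ := exists_sing (Q.restrict P) (show 3 ≤ finrank F P by omega)
  exact ⟨s, fun h => hs0 (Subtype.ext h), hs, s.2 u (Submodule.subset_span (by simp)),
    s.2 v (Submodule.subset_span (by simp))⟩

end general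

variable {V : Type*} [AddCommGroup V] [Module (ZMod 3) V] {Q : QuadraticForm (ZMod 3) V}

theorem z3 (x : ZMod 3) : x = 0 ∨ x = 1 ∨ x = -1 := by revert x; decide

theorem two_ne : (2 : ZMod 3) ≠ 0 := by decide

theorem inv3 (a : ZMod 3) : a⁻¹ = a := by
  rcases z3 a with rfl | rfl | rfl <;> simp

theorem eq_or_neg_of_refl_apply {u v : V} (hv : v ≠ 0) (h : (refl Q u).1 v = -v) :
    v = u ∨ v = -u := by
  rw [refl_apply] at h
  have h3 : v = (-((Q u)⁻¹ * polar Q v u)) • u := by
    have : (3 : ZMod 3) • v = 0 := by rw [show (3 : ZMod 3) = 0 from rfl, zero_smul]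
    rw [neg_smul]
    linear_combination (norm := module) this - h
  rcases z3 (-((Q u)⁻¹ * polar Q v u)) with h4 | h4 | h4 <;> rw [h4] at h3
  · exact absurd (by simpa using h3) hv
  · exact Or.inl (by simpa using h3)
  · exact Or.inr (by simpa using h3)

theorem refl_eq_iff {u v : V} (hv : Q v ≠ 0) : refl Q u = refl Q v ↔ v = u ∨ v = -u := by
  constructor
  · intro h
    exact eq_or_neg_of_refl_apply (ne_zero_of_Q_ne hv) (by rw [h, refl_apply_self hv])
  · rintro (rfl | rfl)
    · rfl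
    · rw [refl_neg]

theorem commute_iff {u v : V} (hu : Q u ≠ 0) (hv : Q v ≠ 0) :
    Commute (refl Q u) (refl Q v) ↔ v = u ∨ v = -u ∨ polar Q u v = 0 := by
  rw [← H94.conj_eq_self_iff, refl_conj, eq_comm,
    refl_eq_iff (by rw [O.map_Q]; exact hv)]
  constructor
  · rintro (h | h)
    · rw [refl_apply, sub_eq_self, smul_eq_zero] at h
      have h1 := h.resolve_right (ne_zero_of_Q_ne hu)
      rw [polar_comm]
      exact Or.inr (Or.inr ((mul_eq_zero.1 h1).resolve_left (inv_ne_zero hu)))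
    · rcases eq_or_neg_of_refl_apply (ne_zero_of_Q_ne hv) h with h | h
      · exact Or.inl h
      · exact Or.inr (Or.inl h)
  · rintro (rfl | rfl | h)
    · exact Or.inr (refl_apply_self hu)
    · right; rw [map_neg, refl_apply_self hu]
    · left; exact refl_apply_of_orth (by rwa [polar_comm])

theorem braid {u v : V} (hu : Q u ≠ 0) (huv : Q u = Q v) (h : polar Q u v ≠ 0) :
    refl Q u * refl Q v * refl Q u = refl Q v * refl Q u * refl Q v := by
  have h1 := refl_conj (refl Q u) v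
  have h2 := refl_conj (refl Q v) u
  rw [refl_inv] at h1 h2
  rw [h1, h2, refl_apply, refl_apply, ← huv, polar_comm Q v u]
  have h3 : (Q u)⁻¹ * polar Q u v ≠ 0 := mul_ne_zero (inv_ne_zero hu) h
  rcases z3 ((Q u)⁻¹ * polar Q u v) with h4 | h4 | h4 <;> rw [h4] at h3 ⊢
  · exact absurd rfl h3
  · rw [← refl_neg]; simp
  · simp [add_comm]

/-- for non-orthogonal vectors of the same norm, `v = ± u + s` with `s` singular and orthogonal to `u` -/
theorem exists_shift {u v : V} (hu : Q u ≠ 0) (huv : Q u = Q v) (h : polar Q u v ≠ 0) :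
    ∃ (ε : ZMod 3) (s : V), ε ≠ 0 ∧ ε ^ 2 = 1 ∧ v = ε • u + s ∧ Q s = 0 ∧ polar Q u s = 0 := by
  refine ⟨-((Q u)⁻¹ * polar Q u v), v + ((Q u)⁻¹ * polar Q u v) • u,
    neg_ne_zero.2 (mul_ne_zero (inv_ne_zero hu) h), ?_, by simp, ?_, ?_⟩
  · rw [inv3]; clear huv; generalize polar Q u v = b at *; generalize Q u = a at *
    revert a b; decide
  · rw [Q_add, Q_smul, B_smul_right, polar_comm Q v u, ← huv, inv3]
    generalize polar Q u v = b at *; generalize Q u = a at *; clear huv; revert a b; decide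
  · rw [polar_add_right, B_smul_right, B_self, inv3]
    generalize polar Q u v = b at *; generalize Q u = a at *; clear huv; revert a b; decide

variable {G : Type*} [Group G]

/-- `D` is the set of reflections of norm `c`, seen in `G` through the embedding `f` -/
structure Emb (Q : QuadraticForm (ZMod 3) V) (c : ZMod 3) (f : G →* O Q) (D : Set G) : Prop where
  inj : Function.Injective f
  mem : ∀ g, g ∈ D ↔ ∃ v, Q v = c ∧ f g = refl Q v
  ex : ∀ v, Q v = c → ∃ g, f g = refl Q v
  gen : Subgroup.closure D = ⊤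

namespace Emb

variable {c : ZMod 3} {f : G →* O Q} {D : Set G}

theorem ex' (h : Emb Q c f D) {v : V} (hv : Q v = c) : ∃ g ∈ D, f g = refl Q v := by
  obtain ⟨g, hg⟩ := h.ex v hv
  exact ⟨g, (h.mem g).2 ⟨v, hv, hg⟩, hg⟩

theorem comm_iff (h : Emb Q c f D) (hc : c ≠ 0) {a b : G} {u v : V} (hu : Q u = c) (hv : Q v = c)
    (ha : f a = refl Q u) (hb : f b = refl Q v) :
    Commute a b ↔ v = u ∨ v = -u ∨ polar Q u v = 0 := by
  rw [← commute_iff (hu ▸ hc) (hv ▸ hc), ← ha, ← hb]
  exact ⟨fun h1 => h1.map f, fun h1 => h1.of_map h.inj⟩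

theorem eq_iff (h : Emb Q c f D) (hc : c ≠ 0) {a b : G} {u v : V} (hv : Q v = c)
    (ha : f a = refl Q u) (hb : f b = refl Q v) : a = b ↔ v = u ∨ v = -u := by
  rw [← refl_eq_iff (hv ▸ hc), ← ha, ← hb, h.inj.eq_iff]

theorem tt (h : Emb Q c f D) (hc : c ≠ 0) : H94.TT D := by
  refine ⟨H94.TS.mk' ?_ ?_ ?_, ?_⟩
  · intro d hd
    obtain ⟨v, -, hv⟩ := (h.mem d).1 hd
    apply h.inj
    rw [map_mul, hv, refl_mul_self, map_one]
  · rintro d hd rfl
    obtain ⟨v, hv, hv'⟩ := (h.mem 1).1 hd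
    have h1 := refl_apply_self (Q := Q) (v := v) (hv ▸ hc)
    rw [← hv', map_one, O.one_apply] at h1
    have h2 : (2 : ZMod 3) • v = 0 := by linear_combination (norm := module) h1
    exact ne_zero_of_Q_ne (hv ▸ hc) ((smul_eq_zero.1 h2).resolve_left two_ne)
  · intro d hd e he
    obtain ⟨u, hu, hu'⟩ := (h.mem d).1 hd
    obtain ⟨v, hv, hv'⟩ := (h.mem e).1 he
    by_cases h0 : polar Q u v = 0
    · exact Or.inl ((h.comm_iff hc hu hv hu' hv').2 (Or.inr (Or.inr h0)))
    · right
      apply h.inj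
      simp only [map_mul, hu', hv']
      exact braid (hu ▸ hc) (hu.trans hv.symm) h0
  · intro g d hd
    obtain ⟨v, hv, hv'⟩ := (h.mem d).1 hd
    exact (h.mem _).2 ⟨(f g).1 v, by rw [O.map_Q, hv], by
      rw [map_mul, map_mul, map_inv, hv', refl_conj]⟩

theorem grp (h : Emb Q c f D) (hc : c ≠ 0) : IsThreeTranspositionGroup D :=
  ⟨(h.tt hc).set, (h.tt hc).conj, h.gen⟩

variable [FiniteDimensional (ZMod 3) V]

theorem cls (h : Emb Q c f D) (hc : c ≠ 0) (hQ : Nondeg Q) (hn : 5 ≤ finrank (ZMod 3) V) :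
    IsThreeTranspositionClass D := by
  have hT := h.tt hc
  obtain ⟨v, hv⟩ := hQ.universal (by omega) c
  obtain ⟨g, hg, -⟩ := h.ex' hv
  refine H94.class_of_group (h.grp hc) ⟨g, hg⟩ fun a ha b hb => ?_
  by_cases hab : Commute a b
  swap
  · exact ⟨_, hT.conj_mul_eq ha hb hab⟩
  obtain ⟨u, hu, hu'⟩ := (h.mem a).1 ha
  obtain ⟨v, hv, hv'⟩ := (h.mem b).1 hb
  by_cases he : a = b
  · exact ⟨1, by simp [he]⟩
  have hne := (h.eq_iff hc hv hu' hv').not.1 he
  have h0 : polar Q u v = 0 := by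
    have := (h.comm_iff hc hu hv hu' hv').1 hab
    tauto
  obtain ⟨t, h1, h2, h3⟩ := exists_orth_Q_eq hQ two_ne hn (hu ▸ hc) h0 (-c)
  have hw : Q (u + v + t) = c := by
    rw [Q_add, Q_add, polar_add_left, h0, h1, h2, h3, hu, hv]; ring
  obtain ⟨w, hwD, hw'⟩ := h.ex' hw
  have huw : polar Q u (u + v + t) = 2 * c := by
    rw [polar_add_right, polar_add_right, h0, h1, B_self, hu]; ring
  have hvw : polar Q v (u + v + t) = 2 * c := by
    rw [polar_add_right, polar_add_right, polar_comm Q v u, h0, h2, B_self, hv]; ring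
  have h2c : 2 * c ≠ 0 := mul_ne_zero two_ne hc
  have n1 : ¬ Commute a w := by
    rw [h.comm_iff hc hu hw hu' hw']
    rintro (h4 | h4 | h4)
    · rw [h4, polar_comm, h0] at hvw; exact h2c hvw.symm
    · rw [h4, polar_neg_right, polar_comm, h0, neg_zero] at hvw; exact h2c hvw.symm
    · exact h2c (huw ▸ h4)
  have n2 : ¬ Commute b w := by
    rw [h.comm_iff hc hv hw hv' hw']
    rintro (h4 | h4 | h4)
    · rw [h4, h0] at huw; exact h2c huw.symm
    · rw [h4, polar_neg_right, h0, neg_zero] at huw; exact h2c huw.symm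
    · exact h2c (hvw ▸ h4)
  refine ⟨(w * b) * (a * w), ?_⟩
  have e1 := hT.conj_mul_eq ha hwD n1
  have e2 := hT.conj_mul_eq hwD hb (fun h => n2 h.symm)
  calc _ = (w * b) * ((a * w) * a * (a * w)⁻¹) * (w * b)⁻¹ := by group
    _ = b := by rw [e1, e2]

theorem exists_commute (h : Emb Q c f D) (hc : c ≠ 0) (hQ : Nondeg Q)
    (hn : 5 ≤ finrank (ZMod 3) V) : ∃ a ∈ D, ∃ b ∈ D, a ≠ b ∧ Commute a b := by
  obtain ⟨u, hu⟩ := hQ.universal (by omega) c
  obtain ⟨v, h1, -, hv⟩ := exists_orth_Q_eq hQ two_ne hn (hu ▸ hc) (s := 0) (by simp) c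
  obtain ⟨a, ha, ha'⟩ := h.ex' hu
  obtain ⟨b, hb, hb'⟩ := h.ex' hv
  refine ⟨a, ha, b, hb, ?_, (h.comm_iff hc hu hv ha' hb').2 (Or.inr (Or.inr h1))⟩
  rw [Ne, h.eq_iff hc hv ha' hb']
  have h2c : 2 * c ≠ 0 := mul_ne_zero two_ne hc
  rintro (rfl | rfl)
  · rw [B_self, hu] at h1; exact h2c h1
  · rw [polar_neg_right, B_self, hu, neg_eq_zero] at h1; exact h2c h1

theorem primitive [Finite G] (h : Emb Q c f D) (hc : c ≠ 0) (hQ : Nondeg Q)
    (hn : 5 ≤ finrank (ZMod 3) V) : IsPrimitiveUnderConj D := by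
  have hT := h.tt hc
  have hC := h.cls hc hQ hn
  obtain ⟨a, ha, b, hb, hab, -⟩ := h.exists_commute hc hQ hn
  have hD2 : ∃ a ∈ D, ∃ b ∈ D, a ≠ b := ⟨a, ha, b, hb, hab⟩
  have h2c : 2 * c ≠ 0 := mul_ne_zero two_ne hc
  obtain ⟨u, hu, hu'⟩ := (h.mem a).1 ha
  refine H94.primitive_of_connected hC hD2 ((H94.pCore_two_le_center_iff hC hD2 ha).2 ?_)
    ((H94.pCore_three_le_center_iff hC ha).2 ?_) ?_
  · intro b hb hV
    by_contra hne
    obtain ⟨v, hv, hv'⟩ := (h.mem b).1 hb
    have hne' := (h.eq_iff hc hv hu' hv').not.1 (Ne.symm hne)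
    have h0 : polar Q u v = 0 := by
      have := (h.comm_iff hc hu hv hu' hv').1 (hV.commute hb)
      tauto
    obtain ⟨s, hs0, hs, h1, h2⟩ := exists_sing_orth (Q := Q) hn u v
    have hw : Q (v + s) = c := by rw [Q_add, hv, hs, h2]; ring
    obtain ⟨w, hwD, hw'⟩ := h.ex' hw
    have h3 := (hV w hwD).1 ((h.comm_iff hc hu hw hu' hw').2 (Or.inr (Or.inr (by
      rw [polar_add_right, h0, h1, add_zero]))))
    have hvw : polar Q v (v + s) = 2 * c := by rw [polar_add_right, h2, B_self, hv, add_zero]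
    rcases (h.comm_iff hc hv hw hv' hw').1 h3 with h4 | h4 | h4
    · exact hs0 (by simpa using h4)
    · rw [h4, polar_neg_right, B_self, hv] at hvw
      apply h2c
      generalize 2 * c = x at *
      revert x; decide
    · exact h2c (hvw ▸ h4)
  · intro b hb hW
    by_contra hne
    obtain ⟨v, hv, hv'⟩ := (h.mem b).1 hb
    have hne' := (h.eq_iff hc hv hu' hv').not.1 (Ne.symm hne)
    have h0 : polar Q u v ≠ 0 := fun h0 =>
      hne (hW.eq_of_commute hb ((h.comm_iff hc hu hv hu' hv').2 (Or.inr (Or.inr h0)))).symm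
    obtain ⟨ε, s, hε, hε2, hvs, hs, hus⟩ := exists_shift (hu ▸ hc) (hu.trans hv.symm) h0
    have hs0 : ∀ t : ZMod 3, s ≠ t • u := by
      rintro t rfl
      rw [Q_smul, hu] at hs
      have ht : t = 0 := pow_eq_zero_iff (two_ne_zero) |>.1 ((mul_eq_zero.1 hs).resolve_right hc)
      rw [ht, zero_smul, add_zero] at hvs
      rcases z3 ε with h4 | h4 | h4 <;> rw [h4] at hvs
      · exact hε h4
      · exact hne' (Or.inl (by simpa using hvs))
      · exact hne' (Or.inr (by simpa using hvs))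
    obtain ⟨y, hy1, hy2⟩ := hQ.exists_orth_B_eq hs0 1
    have hw : Q (y + (c - Q y) • s) = c := by
      rw [Q_add, Q_smul, hs, B_smul_right, polar_comm Q y s, hy2]; ring
    obtain ⟨w, hwD, hw'⟩ := h.ex' hw
    have huw : polar Q u (y + (c - Q y) • s) = 0 := by
      rw [polar_add_right, B_smul_right, hy1, hus]; ring
    have hsw : polar Q s (y + (c - Q y) • s) = 1 := by
      rw [polar_add_right, B_smul_right, hy2, B_self, hs]; ring
    have hvw : polar Q v (y + (c - Q y) • s) = 1 := by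
      rw [hvs, polar_add_left, B_smul_left, huw, hsw]; ring
    have h3 := (hW w hwD).1 ⟨?_, (h.comm_iff hc hu hw hu' hw').2 (Or.inr (Or.inr huw))⟩
    · rcases (h.comm_iff hc hv hw hv' hw').1 h3.2 with h4 | h4 | h4
      · exact h0 (h4 ▸ huw)
      · rw [h4, polar_neg_right, neg_eq_zero] at huw; exact h0 huw
      · rw [h4] at hvw; exact zero_ne_one hvw
    · intro he
      rcases (h.eq_iff hc hw hu' hw').1 he.symm with h4 | h4
      · rw [h4, B_self, hu] at huw; exact h2c huw
      · rw [h4, polar_neg_right, B_self, hu, neg_eq_zero] at huw; exact h2c huw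
  · clear hu hu' hab ha hb
    intro a ha b hb
    by_cases hab : Commute a b
    · exact H94.Reach.single ha hb hab
    obtain ⟨u, hu, hu'⟩ := (h.mem a).1 ha
    obtain ⟨v, hv, hv'⟩ := (h.mem b).1 hb
    have h0 : polar Q u v ≠ 0 := fun h0 =>
      hab ((h.comm_iff hc hu hv hu' hv').2 (Or.inr (Or.inr h0)))
    obtain ⟨ε, s, hε, hε2, hvs, hs, hus⟩ := exists_shift (hu ▸ hc) (hu.trans hv.symm) h0
    obtain ⟨w, h1, h2, hw⟩ := exists_orth_Q_eq hQ two_ne hn (hu ▸ hc) hus c
    obtain ⟨d, hd, hd'⟩ := h.ex' hw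
    have h3 : polar Q v w = 0 := by rw [hvs, polar_add_left, B_smul_left, h1, h2]; ring
    exact (H94.Reach.single ha hd ((h.comm_iff hc hu hw hu' hd').2 (Or.inr (Or.inr h1)))).trans
      (H94.Reach.single hd hb ((h.comm_iff hc hv hw hv' hd').2 (Or.inr (Or.inr h3))).symm)

end Emb

theorem emb_refl {n : ℕ} (Q : QuadraticForm (ZMod 3) (Fin n → ZMod 3)) (c : ZMod 3) :
    Emb Q c ((isoEquiv Q (q := ⇑Q) (fun _ => rfl)).toMonoidHom.comp
      (reflectionSubgroup (⇑Q) c).subtype)
      {g : ↥(reflectionSubgroup (⇑Q) c) |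
        (g : ↥(isometryGroup (ZMod 3) (⇑Q))) ∈ reflectionsOfNorm (⇑Q) c} := by
  refine ⟨(isoEquiv Q (q := ⇑Q) (fun _ => rfl)).injective.comp Subtype.val_injective, ?_, ?_, ?_⟩
  · intro g
    refine exists_congr fun v => and_congr_right fun _ => ?_
    exact isoEquiv_eq_iff Q (fun _ => rfl) _ _ (reflectionMatrix_mulVec Q v)
  · intro v hv
    refine ⟨⟨(isoEquiv Q (q := ⇑Q) (fun _ => rfl)).symm (refl Q v),
      Subgroup.subset_closure ⟨v, hv, ?_⟩⟩, (isoEquiv Q (q := ⇑Q) (fun _ => rfl)).apply_symm_apply _⟩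
    rw [isoEquiv_eq_iff Q (fun _ => rfl) _ _ (reflectionMatrix_mulVec Q v)]
    exact MulEquiv.apply_symm_apply _ _
  · exact Subgroup.closure_closure_coe_preimage

end L0.R3
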